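import Cfsg.Agent.H533.Wf.Aut
import Cfsg.Agent.S1259

/-!
# S3826, orthogonal groups in cross characteristic: tools

* `ACfg.mapEquiv`, `ARow.congr` : transfer along isomorphisms;
* `qs_range` : images of quasisimple groups;
* `mem_iff_of_mapsTo` : automorphisms of finite groups preserving a subgroup.
-/

set_option autoImplicit false

namespace Cfsg.Agent.H79.WO

open Cfsg.Agent.H533.Wf

universe u v

section transfer

variable {p : ℕ} {K K' : Type v} [Group K] [Group K']

theorem mapEquiv {Γ : Subgroup (MulAut K)} {C D : Set (MulAut K)} (h : ACfg p Γ C D) (e : K ≃* K') :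
    ACfg p (Γ.map (MulAut.congr e).toMonoidHom) ((MulAut.congr e) '' C) ((MulAut.congr e) '' D) := by
  have hinj : Function.Injective (MulAut.congr e).toMonoidHom := (MulAut.congr e).injective
  have hcl : ∀ c d : MulAut K, (Subgroup.closure ({c, d} : Set (MulAut K))).map (MulAut.congr e).toMonoidHom =
      Subgroup.closure ({MulAut.congr e c, MulAut.congr e d} : Set (MulAut K')) := by
    intro c d
    rw [MonoidHom.map_closure, Set.image_pair]
    rfl
  have hcard : Nat.card (Γ.map (MulAut.congr e).toMonoidHom) = Nat.card Γ :=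
    Nat.card_congr (Γ.equivMapOfInjective _ hinj).symm.toEquiv
  exact
    { inn := by
        rintro _ ⟨k, rfl⟩
        refine ⟨MulAut.conj (e.symm k), h.inn ⟨_, rfl⟩, ?_⟩
        ext x
        show e (MulAut.conj (e.symm k) (e.symm x)) = _
        rw [MulAut.conj_apply, MulAut.conj_apply, map_mul, map_mul, map_inv, e.apply_symm_apply,
          e.apply_symm_apply]
      subC := by rintro _ ⟨c, hc, rfl⟩; exact ⟨c, h.subC hc, rfl⟩
      subD := by rintro _ ⟨c, hc, rfl⟩; exact ⟨c, h.subD hc, rfl⟩
      conjC := by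
        rintro _ ⟨g, hg, rfl⟩ _ ⟨c, hc, rfl⟩
        refine ⟨_, h.conjC g hg c hc, ?_⟩
        rw [map_mul, map_mul, map_inv]
        rfl
      conjD := by
        rintro _ ⟨g, hg, rfl⟩ _ ⟨c, hc, rfl⟩
        refine ⟨_, h.conjD g hg c hc, ?_⟩
        rw [map_mul, map_mul, map_inv]
        rfl
      ordC := by
        rintro _ ⟨c, hc, rfl⟩
        rw [MulEquiv.orderOf_eq]; exact h.ordC c hc
      ordD := by
        rintro _ ⟨c, hc, rfl⟩
        rw [MulEquiv.orderOf_eq]; exact h.ordD c hc
      neC := h.neC.image _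
      neD := h.neD.image _
      pair := by
        rintro _ ⟨c, hc, rfl⟩ _ ⟨d, hd, rfl⟩
        rw [← hcl]
        exact (h.pair c hc d hd).map _
      free := by
        rintro _ ⟨c, hc, rfl⟩ _ ⟨d, hd, rfl⟩
        rw [← hcl]
        exact (h.free c hc d hd).map _
      simple := by have := h.simple; exact e.symm.isSimpleGroup
      nc := by
        intro hc
        apply h.nc
        refine ⟨⟨fun a b => e.injective ?_⟩⟩
        rw [map_mul, map_mul]
        exact hc.is_comm.comm _ _
      dvd := by rw [← Nat.card_congr e.toEquiv]; exact h.dvd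
      ih := by
        intro X _ _ hX
        rw [hcard] at hX
        exact h.ih X hX }

theorem ARow.congr (e : K ≃* K') (h : ARow p K) : ARow p K' := fun _ _ _ h' =>
  h _ _ _ (mapEquiv h' e.symm)

end transfer

/-- images of quasisimple groups -/
theorem qs_range {S : Type*} {G : Type u} [Group S] [Finite S] [Group G] (hS : Cfsg.IsQuasisimple S) (ψ : S →* G)
    (hne : ψ.range ≠ ⊥) : QS ψ.range := by
  refine ⟨?_, hne, ?_⟩
  · have h1 : commutator S = ⊤ := hS.1.commutator_eq_top
    rw [MonoidHom.range_eq_map, ← Subgroup.map_commutator, ← commutator_def, h1]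
  · intro N hN hn
    have h1 : (N.comap ψ).Normal := by
      constructor
      intro x hx g
      rw [Subgroup.mem_comap, map_mul, map_mul, map_inv]
      exact (Subgroup.mem_normalizer_iff.1 (hn ⟨g, rfl⟩) _).1 hx
    have h2 : (N.comap ψ).map ψ = N := by
      rw [Subgroup.map_comap_eq, inf_eq_right]
      exact hN
    rcases Cfsg.Agent.S1259.result hS (N.comap ψ) h1.isSubnormal with h | h
    · left
      rw [← h2, h, MonoidHom.range_eq_map]
    · right
      rw [← h2]
      rintro _ ⟨x, hx, rfl⟩
      rw [Subgroup.mem_centralizer_iff]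
      rintro _ ⟨y, rfl⟩
      rw [← map_mul, ← map_mul, Subgroup.mem_center_iff.1 (h hx) y]

theorem mem_iff_of_mapsTo {G : Type u} [Group G] [Finite G] {L : Subgroup G} {c : MulAut G} (h : ∀ x ∈ L, c x ∈ L)
    (x : G) : c x ∈ L ↔ x ∈ L := by
  refine ⟨fun hx => ?_, h x⟩
  have h1 : L.map c.toMonoidHom = L := by
    apply Subgroup.eq_of_le_of_card_ge
    · rintro _ ⟨y, hy, rfl⟩
      exact h y hy
    · exact (Nat.card_congr (L.equivMapOfInjective _ c.injective).toEquiv).le
  rw [← h1] at hx
  obtain ⟨y, hy, hyx⟩ := hx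
  rwa [← c.injective hyx]

end Cfsg.Agent.H79.WO
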