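import Cfsg.Agent.H862.T5.OFrame
import Cfsg.Agent.ClassicalGeometry.OrthAut1
import Cfsg.Agent.H79.WO.Tools

/-!
# S3826, orthogonal groups in cross characteristic: blocks

`extE hj hq : E q →* E Q` extends by the identity of the orthogonal complement of the block `j`;
`false_of_block` : two automorphisms acting nontrivially on the same quasisimple subgroup of `E q`.
-/

set_option autoImplicit false
set_option linter.unusedSectionVars false

namespace Cfsg.Agent.H79.WO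

open QuadraticMap Module Cfsg.Agent.LieClassical.OrthCore Cfsg.Agent.LieClassical.OrthTrans
open Cfsg.Agent.ClassicalGeometry.OrthSemi Cfsg.Agent.ClassicalGeometry.OrthAut1
open Cfsg.Agent.H951 (Frm Nd Inv)
open Cfsg.Agent.H862.T5.OBase Cfsg.Agent.H862.T5.OFrame
open Cfsg.Agent.H957.T5V
open Cfsg.Agent.H208.Parity (ofO)
open Cfsg.Agent.H533.Wf

section ext

variable {F V U : Type*} [Field F] [AddCommGroup V] [Module F V] [AddCommGroup U] [Module F U]
  {Q : QuadraticForm F V} {q : QuadraticForm F U} {j : U →ₗ[F] V}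

/-- `G` extends `g` by the identity of the orthogonal complement -/
structure IsExt (Q : QuadraticForm F V) (j : U →ₗ[F] V) (g : U ≃ₗ[F] U) (G : V ≃ₗ[F] V) : Prop where
  on : ∀ u, G (j u) = j (g u)
  off : ∀ v, (∀ u, polar Q (j u) v = 0) → G v = v

theorem IsExt.one : IsExt Q j 1 1 := ⟨fun _ => rfl, fun _ _ => rfl⟩

theorem IsExt.mul {g h : U ≃ₗ[F] U} {G H : V ≃ₗ[F] V} (hg : IsExt Q j g G) (hh : IsExt Q j h H) :
    IsExt Q j (g * h) (G * H) :=
  ⟨fun u => by rw [LinearEquiv.mul_apply, hh.on, hg.on, LinearEquiv.mul_apply],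
    fun v hv => by rw [LinearEquiv.mul_apply, hh.off v hv, hg.off v hv]⟩

theorem IsExt.inv {g : U ≃ₗ[F] U} {G : V ≃ₗ[F] V} (hg : IsExt Q j g G) : IsExt Q j g⁻¹ G⁻¹ := by
  refine ⟨fun u => ?_, fun v hv => ?_⟩
  · have h1 := hg.on (g⁻¹ u)
    have h2 : g (g⁻¹ u) = u := g.apply_symm_apply u
    rw [h2] at h1
    rw [← h1]
    exact G.symm_apply_apply _
  · conv_lhs => rw [← hg.off v hv]
    exact G.symm_apply_apply _

theorem exists_ext (hj : Emb Q q j) {g : U ≃ₗ[F] U} (hg : g ∈ E q) : ∃ G ∈ E Q, IsExt Q j g G := by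
  rw [E] at hg
  induction hg using Subgroup.closure_induction with
  | mem g hg =>
    obtain ⟨u, w, hu, hw, rfl⟩ := hg
    refine ⟨siegel Q (j u) (j w) (by rw [hj.form, hu]) (by rw [hj.polar, hw]), siegel_mem_E _ _, fun v => ?_,
      fun v hv => ?_⟩
    · rw [siegel_apply, siegel_apply, hj.polar, hj.polar, hj.form]
      simp only [map_add, map_sub, map_smul]
    · rw [siegel_apply, hv, hv, mul_zero, zero_smul, zero_smul, add_zero, sub_zero, sub_zero]
  | one => exact ⟨1, (E Q).one_mem, IsExt.one⟩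
  | mul a b _ _ ha hb =>
    obtain ⟨G, hG, hg⟩ := ha
    obtain ⟨H, hH, hh⟩ := hb
    exact ⟨G * H, (E Q).mul_mem hG hH, hg.mul hh⟩
  | inv a _ ha =>
    obtain ⟨G, hG, hg⟩ := ha
    exact ⟨G⁻¹, (E Q).inv_mem hG, hg.inv⟩

theorem exists_decomp [FiniteDimensional F V] (hj : Emb Q q j) (hq : Nondeg q) (v : V) :
    ∃ u w, (∀ u', polar Q (j u') w = 0) ∧ v = j u + w := by
  have hB := frm_polar Q
  have h1 := (hB.isCompl_perp (hj.nd hq)).sup_eq_top
  have h2 : v ∈ LinearMap.range j ⊔ hB.perp (LinearMap.range j) := by rw [h1]; trivial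
  obtain ⟨_, ⟨u, rfl⟩, w, hw, rfl⟩ := Submodule.mem_sup.1 h2
  refine ⟨u, w, fun u' => ?_, rfl⟩
  have h3 := hw (j u') ⟨u', rfl⟩
  rw [BB_apply, polar_comm] at h3
  exact h3

theorem IsExt.unique [FiniteDimensional F V] (hj : Emb Q q j) (hq : Nondeg q) {g : U ≃ₗ[F] U} {G G' : V ≃ₗ[F] V}
    (h : IsExt Q j g G) (h' : IsExt Q j g G') : G = G' := by
  ext1 v
  obtain ⟨u, w, hw, rfl⟩ := exists_decomp hj hq v
  rw [map_add, map_add, h.on, h'.on, h.off w hw, h'.off w hw]

/-- extension by the identity -/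
noncomputable def extE [FiniteDimensional F V] (hj : Emb Q q j) (hq : Nondeg q) : ↥(E q) →* ↥(E Q) where
  toFun g := ⟨(exists_ext hj g.2).choose, (exists_ext hj g.2).choose_spec.1⟩
  map_one' := Subtype.ext ((exists_ext hj (1 : ↥(E q)).2).choose_spec.2.unique hj hq IsExt.one)
  map_mul' a b := Subtype.ext ((exists_ext hj (a * b).2).choose_spec.2.unique hj hq
    ((exists_ext hj a.2).choose_spec.2.mul (exists_ext hj b.2).choose_spec.2))

theorem isExt_extE [FiniteDimensional F V] (hj : Emb Q q j) (hq : Nondeg q) (g : ↥(E q)) :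
    IsExt Q j g (extE hj hq g : V ≃ₗ[F] V) := (exists_ext hj g.2).choose_spec.2

/-- a vector of the complement of nonzero norm -/
theorem exists_perp_norm [FiniteDimensional F V] (hQ : Nondeg Q) (hj : Emb Q q j) (hq : Nondeg q)
    (hlt : finrank F U < finrank F V) : ∃ w, Q w ≠ 0 ∧ ∀ u, polar Q (j u) w = 0 := by
  have hB := frm_polar Q
  have hn := hj.nd hq
  have hP := hB.nd_perp_inf (nd_top hQ) hn le_top
  have hr : finrank F (LinearMap.range j) = finrank F U := LinearMap.finrank_range_of_inj (hj.injective hq)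
  have hf := hB.finrank_perp_inf hn (le_top (a := LinearMap.range j))
  rw [finrank_top, hr] at hf
  obtain ⟨v, hv, hv0⟩ := (Submodule.ne_bot_iff (hB.perp (LinearMap.range j) ⊓ ⊤)).1 (by
    intro h
    rw [h, finrank_bot] at hf
    omega)
  by_contra hno
  push Not at hno
  have key : ∀ w ∈ hB.perp (LinearMap.range j) ⊓ ⊤, Q w = 0 := by
    intro w hw
    by_contra h0
    obtain ⟨u, hu⟩ := hno w h0
    apply hu
    rw [polar_comm]
    exact hw.1 (j u) ⟨u, rfl⟩
  obtain ⟨w, hw, hvw⟩ := hP v hv hv0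
  apply hvw
  rw [BB_apply, polar, key _ (Submodule.add_mem _ hv hw), key _ hv, key _ hw]
  ring

end ext

section kill

variable {F V U : Type*} [Field F] [Finite F] [AddCommGroup V] [Module F V] [FiniteDimensional F V] [AddCommGroup U]
  [Module F U] [FiniteDimensional F U] {Q : QuadraticForm F V} {q : QuadraticForm F U} {j : U →ₗ[F] V}
  {S₀ : Type*} [Group S₀]

/-- `x` normalises and does not centralise the image of `η` -/
structure Acts (η : S₀ →* ↥(E q)) (x : Equiv.Perm U) : Prop where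
  norm : ∀ s, ∃ s', toA (η s' : U ≃ₗ[F] U) = x * toA (η s : U ≃ₗ[F] U) * x⁻¹
  ne : ∃ s, x * toA (η s : U ≃ₗ[F] U) * x⁻¹ ≠ toA (η s : U ≃ₗ[F] U)

/-- the subgroup of the block -/
noncomputable def psi (hj : Emb Q q j) (hq : Nondeg q) (η : S₀ →* ↥(E q)) : S₀ →* P Q :=
  (QuotientGroup.mk' (Subgroup.center ↥(E Q))).comp ((extE hj hq).comp η)

theorem psi_apply (hj : Emb Q q j) (hq : Nondeg q) (η : S₀ →* ↥(E q)) (s : S₀) :
    psi hj hq η s = (QuotientGroup.mk (extE hj hq (η s)) : P Q) := rfl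

theorem scal_of_center (hG : Good Q) {g : ↥(E Q)} (hg : g ∈ Subgroup.center ↥(E Q)) :
    ∃ a : F, ∀ v, (g : V ≃ₗ[F] V) v = a • v := by
  have h1 : (QuotientGroup.mk g : P Q) = 1 := (QuotientGroup.eq_one_iff g).2 hg
  have h2 := Psi_E (Q := Q) g.2
  have h3 : (QuotientGroup.mk (⟨g.1, g.2⟩ : ↥(E Q)) : P Q) = 1 := h1
  rw [h3, map_one] at h2
  obtain ⟨a, ha⟩ := exists_scal hG h2
  refine ⟨a, fun v => ?_⟩
  have h4 : (ofO g.1 (E_le_O g.2)).1 v = (scal Q a).1 v := by rw [ha]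
  exact h4

theorem psi_injective (hG : Good Q) (hj : Emb Q q j) (hq : Nondeg q) (hlt : finrank F U < finrank F V)
    {η : S₀ →* ↥(E q)} {s s' : S₀} (h : psi hj hq η s = psi hj hq η s') : η s = η s' := by
  rw [psi_apply, psi_apply] at h
  have h1 := scal_of_center hG (QuotientGroup.eq.1 h)
  obtain ⟨a, ha⟩ := h1
  obtain ⟨w, hw0, hw⟩ := exists_perp_norm hG.nondeg hj hq hlt
  have hx := ((isExt_extE hj hq (η s)).inv).mul (isExt_extE hj hq (η s'))
  have hx' : ∀ v, (((extE hj hq (η s) : V ≃ₗ[F] V))⁻¹ * (extE hj hq (η s') : V ≃ₗ[F] V)) v = a • v := ha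
  have ha1 : a = 1 := by
    have h2 := hx.off w hw
    rw [hx'] at h2
    have h3 : w ≠ 0 := by
      rintro rfl
      exact hw0 (QuadraticMap.map_zero Q)
    have h4 : (a - 1) • w = 0 := by rw [sub_smul, h2, one_smul, sub_self]
    exact sub_eq_zero.1 ((smul_eq_zero.1 h4).resolve_right h3)
  have h5 : ((η s : U ≃ₗ[F] U))⁻¹ * (η s' : U ≃ₗ[F] U) = 1 := by
    ext1 u
    apply hj.injective hq
    rw [← hx.on, hx', ha1, one_smul]
    rfl
  exact Subtype.ext (inv_mul_eq_one.1 h5)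

theorem psi_range_ne_top (hG : Good Q) (hj : Emb Q q j) (hq : Nondeg q) (h3 : 3 ≤ finrank F U)
    (hlt : finrank F U < finrank F V) (η : S₀ →* ↥(E q)) : (psi hj hq η).range ≠ ⊤ := by
  intro htop
  obtain ⟨w, hw0, hw⟩ := exists_perp_norm hG.nondeg hj hq hlt
  have hn := hj.nd hq
  have hr : finrank F (LinearMap.range j) = finrank F U := LinearMap.finrank_range_of_inj (hj.injective hq)
  obtain ⟨v, ⟨u, rfl⟩, hv⟩ := exists_norm_sub hn (by omega) (Q w)
  have hw1 : w ≠ 0 := by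
    rintro rfl
    exact hw0 (QuadraticMap.map_zero Q)
  have hu1 : j u ≠ 0 := by
    intro h0
    rw [h0, QuadraticMap.map_zero] at hv
    exact hw0 hv.symm
  obtain ⟨g, hg, hgw⟩ := hG.trans_norm hw1 hu1 hv.symm
  have h1 : (QuotientGroup.mk (⟨g, hg⟩ : ↥(E Q)) : P Q) ∈ (psi hj hq η).range := by rw [htop]; trivial
  obtain ⟨s, hs⟩ := h1
  rw [psi_apply] at hs
  obtain ⟨a, ha⟩ := scal_of_center hG (QuotientGroup.eq.1 hs)
  have h4 : ∀ v, g v = a • (extE hj hq (η s) : V ≃ₗ[F] V) v := by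
    intro v
    have h5 : (((extE hj hq (η s) : V ≃ₗ[F] V))⁻¹ * g) v = a • v := ha v
    rw [← map_smul, ← h5]
    exact ((extE hj hq (η s) : V ≃ₗ[F] V).apply_symm_apply (g v)).symm
  have h5 : j u = a • w := by rw [← hgw, h4, (isExt_extE hj hq (η s)).off w hw]
  have h6 : polar Q (j u) (j u) = 0 := by
    conv_lhs => arg 3; rw [h5]
    rw [polar_smul_right, hw, smul_zero]
  have h7 : ∀ u', polar q u u' = 0 := by
    intro u'
    rw [← hj.polar, h5, polar_smul_left, polar_comm, hw, smul_zero]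
  exact hu1 (by rw [hq u h7, map_zero])

theorem psi_map (hj : Emb Q q j) (hq : Nondeg q) (η : S₀ →* ↥(E q)) {X : Gam Q} {x' : Equiv.Perm U}
    (hx : Cov j X.1 x') {s s' : S₀} (hs : toA (η s' : U ≃ₗ[F] U) = x' * toA (η s : U ≃ₗ[F] U) * x'⁻¹) :
    Psi Q X (psi hj hq η s) = psi hj hq η s' := by
  rw [psi_apply, psi_apply, Psi_mk]
  congr 1
  apply Subtype.ext
  rw [coe_conjE]
  obtain ⟨σ, c, hX⟩ := X.2
  refine IsExt.unique hj hq (g := (η s' : U ≃ₗ[F] U)) ⟨fun u => ?_, fun v hv => ?_⟩ (isExt_extE hj hq (η s'))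
  · rw [conjLin_apply]
    have h1 : X.1⁻¹ (j u) = j (x'⁻¹ u) := hx.inv u
    rw [h1, (isExt_extE hj hq (η s)).on, hx]
    congr 1
    have h2 := DFunLike.congr_fun hs u
    exact h2.symm
  · rw [conjLin_apply, (isExt_extE hj hq (η s)).off]
    · exact X.1.apply_symm_apply v
    · intro u
      have h1 := hX.polar (j u) (X.1⁻¹ v)
      have h2 : X.1 (X.1⁻¹ v) = v := X.1.apply_symm_apply v
      rw [h2, hx, hv] at h1
      have h3 := (mul_eq_zero.1 h1.symm).resolve_left hX.ne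
      simpa using h3

variable {Γ : Subgroup (MulAut (P Q))} {C D : Set (MulAut (P Q))}

/-- **The block kill.** -/
theorem false_of_block [Finite S₀] (hG : Good Q) (hj : Emb Q q j) (hq : Nondeg q) (h3 : 3 ≤ finrank F U)
    (hlt : finrank F U < finrank F V) (hS : Cfsg.IsQuasisimple S₀) (η : S₀ →* ↥(E q)) {p : ℕ} [hp : Fact p.Prime]
    (h : ACfg p Γ C D) {X Y : Gam Q} (hX : Psi Q X ∈ C) (hY : Psi Q Y ∈ D) {x' y' : Equiv.Perm U}
    (hx : Cov j X.1 x') (hy : Cov j Y.1 y') (hxa : Acts η x') (hya : Acts η y') : False := by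
  have hfin : Finite (V ≃ₗ[F] V) := by
    have : Finite V := Module.finite_of_finite F
    exact Finite.of_injective (fun f => (f : V → V)) DFunLike.coe_injective
  have : Finite (P Q) := Quotient.finite _
  have key : ∀ (X : Gam Q) (x' : Equiv.Perm U), Cov j X.1 x' → Acts η x' →
      (∀ x, Psi Q X x ∈ (psi hj hq η).range ↔ x ∈ (psi hj hq η).range) ∧
      ∃ x ∈ (psi hj hq η).range, Psi Q X x ≠ x := by
    intro X x' hx hxa
    constructor
    · apply mem_iff_of_mapsTo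
      rintro _ ⟨s, rfl⟩
      obtain ⟨s', hs'⟩ := hxa.norm s
      exact ⟨s', (psi_map hj hq η hx hs').symm⟩
    · obtain ⟨s, hs⟩ := hxa.ne
      obtain ⟨s', hs'⟩ := hxa.norm s
      refine ⟨psi hj hq η s, ⟨s, rfl⟩, fun h1 => hs ?_⟩
      rw [psi_map hj hq η hx hs'] at h1
      rw [← hs', psi_injective hG hj hq hlt h1]
  obtain ⟨k1, k2⟩ := key X x' hx hxa
  obtain ⟨k3, k4⟩ := key Y y' hy hya
  have hne : (psi hj hq η).range ≠ ⊥ := by
    intro h0
    obtain ⟨x, hx, hx1⟩ := k2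
    rw [h0, Subgroup.mem_bot] at hx
    subst hx
    exact hx1 (map_one _)
  exact h.false_of_moves (qs_range hS _ hne) (psi_range_ne_top hG hj hq h3 hlt η) hX hY k1 k3 k2 k4

end kill

end Cfsg.Agent.H79.WO
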