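import Cfsg.Agent.H862.T5.OPlusFour
import Cfsg.Agent.SignalizersComponents.SLQuasisimple
import Cfsg.Agent.H79.WO.Ext

/-!
# S3826, orthogonal groups in cross characteristic, `q ≥ 4`

`false_of_fr4` : two automorphisms with good four-spaces.
-/

set_option autoImplicit false
set_option linter.unusedSectionVars false

namespace Cfsg.Agent.H79.WO

open QuadraticMap Module Cfsg.Agent.LieClassical.OrthCore Cfsg.Agent.LieClassical.OrthTrans
open Cfsg.Agent.ClassicalGeometry.OrthSemi Cfsg.Agent.ClassicalGeometry.OrthAut1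
open Cfsg.Agent.H862.T5.OBase Cfsg.Agent.H862.T5.OFrame Cfsg.Agent.H862.T5.OPlusFour
open Cfsg.Agent.H957.T5V
open Cfsg.Agent.H208.Parity (ofO)
open Cfsg.Agent.H533.Wf
open scoped Matrix MatrixGroups

section two

variable {F : Type*} [Field F]

theorem lmul_mem (A : SL(2, F)) : lmul A ∈ E (detQ F) := by
  obtain ⟨G, hG, h⟩ := lift_lmul (Q := detQ F) (j := LinearMap.id) ⟨fun _ => rfl⟩ A
  have : G = lmul A := LinearEquiv.ext h
  rwa [← this]

/-- left multiplications -/
def etaSL (F : Type*) [Field F] : SL(2, F) →* ↥(E (detQ F)) where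
  toFun A := ⟨lmul A, lmul_mem A⟩
  map_one' := by
    apply Subtype.ext
    ext1 X
    show ((1 : SL(2, F)) : M2 F) * X = X
    rw [Matrix.SpecialLinearGroup.coe_one, one_mul]
  map_mul' A B := by
    apply Subtype.ext
    ext1 X
    show ((A * B : SL(2, F)) : M2 F) * X = (A : M2 F) * ((B : M2 F) * X)
    rw [Matrix.SpecialLinearGroup.coe_mul, Matrix.mul_assoc]

theorem etaSL_apply (A : SL(2, F)) (X : M2 F) : (etaSL F A : M2 F ≃ₗ[F] M2 F) X = (A : M2 F) * X := rfl

/-- the matrix of a semilinear map -/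
def mat (c : Equiv.Perm (Fin 2 → F)) : M2 F := Matrix.of fun i k => c (Pi.single k 1) i

variable {σ : F ≃+* F} {c : Equiv.Perm (Fin 2 → F)}

theorem cols_eq (hc : Semi σ c) (X : M2 F) : cols c X = mat c * X.map σ := by
  have key : ∀ v : Fin 2 → F, c v = fun i => mat c i 0 * σ (v 0) + mat c i 1 * σ (v 1) := by
    intro v
    have h1 : v = v 0 • (Pi.single 0 1 : Fin 2 → F) + v 1 • (Pi.single 1 1 : Fin 2 → F) := by
      funext i
      fin_cases i <;> simp
    conv_lhs => rw [h1, hc.add, hc.smul, hc.smul]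
    funext i
    show σ (v 0) * c (Pi.single 0 1) i + σ (v 1) * c (Pi.single 1 1) i = _
    show _ = c (Pi.single 0 1) i * σ (v 0) + c (Pi.single 1 1) i * σ (v 1)
    ring
  ext i k
  rw [cols_apply, key, Matrix.mul_apply, Fin.sum_univ_two, Matrix.map_apply, Matrix.map_apply]

theorem det_mat_ne (hc : Semi σ c) : (mat c).det ≠ 0 := by
  intro h0
  obtain ⟨v, hv0, hv⟩ := Matrix.exists_mulVec_eq_zero_iff.2 h0
  -- `c (σ⁻¹ v) = 0`
  let w : M2 F := Matrix.of fun i k => if k = 0 then σ.symm (v i) else 0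
  have h1 : cols c w = 0 := by
    rw [cols_eq hc]
    ext i k
    rw [Matrix.mul_apply]
    have h2 : ∀ l, (w.map σ) l k = if k = 0 then v l else 0 := by
      intro l
      rw [Matrix.map_apply]
      show σ (if k = 0 then σ.symm (v l) else 0) = _
      split_ifs
      · exact σ.apply_symm_apply _
      · exact map_zero σ
    simp only [h2]
    by_cases hk : k = 0
    · simp only [hk, if_true]
      exact congrFun hv i
    · simp [hk]
  have h3 : c (fun l => w l 0) = c 0 := by
    rw [hc.zero]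
    funext i
    exact congrFun (congrFun h1 i) 0
  have h4 := c.injective h3
  apply hv0
  funext l
  have h5 := congrFun h4 l
  have h6 : w l 0 = σ.symm (v l) := by
    show (if (0 : Fin 2) = 0 then σ.symm (v l) else 0) = _
    rw [if_pos rfl]
  rw [h6] at h5
  have h7 := congrArg σ h5
  rw [σ.apply_symm_apply] at h7
  rw [h7]
  exact map_zero σ

theorem map_one' : (1 : M2 F).map σ = 1 := by
  rw [Matrix.map_one _ (map_zero σ) (map_one σ)]

theorem acts_sl {x : Equiv.Perm (M2 F)} (hc : Semi σ c) (hx : TR x c) (hn : ¬ IsScal F c) : Acts (etaSL F) x := by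
  obtain ⟨B, hB⟩ := hx
  have hP := det_mat_ne hc
  set P := mat c with hPdef
  have hx' : ∀ X, x X = P * X.map σ * B := fun X => by rw [hB, cols_eq hc]
  have hPu : IsUnit P.det := isUnit_iff_ne_zero.2 hP
  have hmul : ∀ A X : M2 F, (A * X).map σ = A.map σ * X.map σ := fun A X => Matrix.map_mul
  have hBd : IsUnit B.det := by
    obtain ⟨X, hX⟩ := x.surjective 1
    rw [hx'] at hX
    have := congrArg Matrix.det hX
    rw [Matrix.det_mul, Matrix.det_one] at this
    exact IsUnit.of_mul_eq_one_right _ this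
  constructor
  · intro A
    have hd : (P * (A : M2 F).map σ * P⁻¹).det = 1 := by
      rw [Matrix.det_mul, Matrix.det_mul, Matrix.det_nonsing_inv, mul_comm P.det, mul_assoc,
        Ring.mul_inverse_cancel _ hPu, mul_one]
      have h1 : ((A : M2 F).map σ).det = σ (A : M2 F).det := by
        rw [Matrix.det_fin_two, Matrix.det_fin_two]
        simp only [Matrix.map_apply, map_sub, map_mul]
      rw [h1, A.2, map_one]
    refine ⟨⟨_, hd⟩, ?_⟩
    rw [eq_mul_inv_iff_mul_eq]
    ext1 X
    show P * (A : M2 F).map σ * P⁻¹ * (x X) = x ((A : M2 F) * X)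
    rw [hx', hx', hmul]
    rw [← Matrix.mul_assoc, ← Matrix.mul_assoc, Matrix.mul_assoc (P * (A : M2 F).map σ) P⁻¹ P,
      Matrix.nonsing_inv_mul _ hPu, Matrix.mul_one, Matrix.mul_assoc P]
  · by_contra hno
    push Not at hno
    have h1 : ∀ A : SL(2, F), P * (A : M2 F).map σ = A * P := by
      intro A
      have h2 := hno A
      rw [mul_inv_eq_iff_eq_mul] at h2
      have h3 := DFunLike.congr_fun h2 (1 : M2 F)
      rw [Equiv.Perm.mul_apply, Equiv.Perm.mul_apply, toA_apply, toA_apply, etaSL_apply, etaSL_apply, hx', hx',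
        mul_one, map_one', mul_one, ← mul_assoc] at h3
      have h4 := congrArg (· * B⁻¹) h3
      simp only [Matrix.mul_assoc] at h4
      rw [Matrix.mul_nonsing_inv _ hBd, mul_one, mul_one] at h4
      exact h4
    have h2 : ∀ t : F, σ t * P 0 0 = t * P 1 1 ∧ t * P 1 0 = 0 := by
      intro t
      have h3 := h1 ⟨!![1, t; 0, 1], by rw [Matrix.det_fin_two]; simp⟩
      have e01 := congrFun (congrFun h3 0) 1
      have e00 := congrFun (congrFun h3 0) 0
      rw [Matrix.mul_apply, Matrix.mul_apply, Fin.sum_univ_two, Fin.sum_univ_two] at e01 e00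
      simp at e01 e00
      refine ⟨?_, ?_⟩
      · linear_combination e01
      · rcases e00 with h | h
        · rw [h, zero_mul]
        · rw [h, mul_zero]
    have h3 : P 0 1 = 0 := by
      have h4 := h1 ⟨!![1, 0; 1, 1], by rw [Matrix.det_fin_two]; simp⟩
      have e00 := congrFun (congrFun h4 0) 0
      rw [Matrix.mul_apply, Matrix.mul_apply, Fin.sum_univ_two, Fin.sum_univ_two] at e00
      simp at e00
      exact e00
    have h4 : P 1 0 = 0 := by simpa using (h2 1).2
    have h5 : P 0 0 = P 1 1 := by simpa using (h2 1).1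
    have h6 : P 0 0 ≠ 0 := by
      intro h7
      apply hP
      rw [Matrix.det_fin_two, h3, h7]
      ring
    have h7 : ∀ t, σ t = t := by
      intro t
      have h8 := (h2 t).1
      rw [← h5] at h8
      exact mul_right_cancel₀ h6 h8
    apply hn
    refine ⟨P 0 0, fun v => ?_⟩
    have h8 := cols_eq hc (Matrix.of fun i k => if k = 0 then v i else 0)
    funext i
    have h9 := congrFun (congrFun h8 i) 0
    rw [cols_apply, Matrix.mul_apply, Fin.sum_univ_two, Matrix.map_apply, Matrix.map_apply, h7, h7] at h9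
    simp only [Matrix.of_apply, if_true] at h9
    rw [h9, Pi.smul_apply, smul_eq_mul]
    fin_cases i
    · show P 0 0 * v 0 + P 0 1 * v 1 = P 0 0 * v 0
      rw [h3, zero_mul, add_zero]
    · show P 1 0 * v 0 + P 1 1 * v 1 = P 0 0 * v 1
      rw [h4, zero_mul, zero_add, h5]

end two

section kill

variable {F V : Type*} [Field F] [Finite F] [AddCommGroup V] [Module F V] [FiniteDimensional F V]
  {Q : QuadraticForm F V} {Γ : Subgroup (MulAut (P Q))} {C D : Set (MulAut (P Q))}

/-- conjugation by an element of `E Q` -/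
theorem conj_mem {p : ℕ} (h : ACfg p Γ C D) {Y : Gam Q} (hY : Psi Q Y ∈ D) {T : V ≃ₗ[F] V} (hT : T ∈ E Q) :
    Psi Q (ofO T (E_le_O hT) * Y * (ofO T (E_le_O hT))⁻¹) ∈ D := by
  rw [map_mul, map_mul, map_inv]
  refine h.conjD _ (h.inn ?_) _ hY
  rw [Psi_E hT]
  exact ⟨_, rfl⟩

/-- **Two automorphisms with good four-spaces.** -/
theorem false_of_fr4 (hG : Good Q) (h7 : 7 ≤ finrank F V) (h4 : 4 ≤ Nat.card F) {p : ℕ} [Fact p.Prime]
    (h : ACfg p Γ C D) {X Y : Gam Q} (hX : Psi Q X ∈ C) (hY : Psi Q Y ∈ D) (hx : Fr4 Q X.1) (hy : Fr4 Q Y.1) :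
    False := by
  obtain ⟨j₁, x', σ, c, h₁, hx', hc, hxc, hcn⟩ := hx
  obtain ⟨j₂, y', τ, d, h₂, hy', hd, hyd, hdn⟩ := hy
  obtain ⟨T, hT, hTj⟩ := exists_common hG nondeg_detQ h₁ h₂ (by rw [finrank_M2]; omega)
  have hj : T.toLinearMap ∘ₗ j₂ = j₁ := LinearMap.ext hTj
  have hy'' : Cov j₁ (ofO T (E_le_O hT) * Y * (ofO T (E_le_O hT))⁻¹).1 y' := by
    rw [← hj]
    exact hy'.left T
  have := Fintype.ofFinite F
  exact false_of_block hG h₁ nondeg_detQ (by rw [finrank_M2]; omega) (by rw [finrank_M2]; omega)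
    (Cfsg.Agent.SignalizersComponents.SLQuasisimple.isQuasisimple_two h4) (etaSL F) h hX (conj_mem h hY hT) hx' hy''
    (acts_sl hc hxc hcn) (acts_sl hd hyd hdn)

end kill

end Cfsg.Agent.H79.WO
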