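import Cfsg.Agent.H862.T5.OMain
import Cfsg.Agent.H79.WO.Four

/-!
# S3826, orthogonal groups in cross characteristic: six-dimensional blocks of minus type

`exists_six` : an isometry of odd prime order `p`, `ord_p(q) = 2`, has an invariant six-space of minus type on which it
is not trivial; `false_of_six`.
-/

set_option autoImplicit false
set_option linter.unusedSectionVars false

namespace Cfsg.Agent.H79.WO

open QuadraticMap Module Cfsg.Agent.LieClassical.OrthCore Cfsg.Agent.LieClassical.OrthTrans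
open Cfsg.Agent.ClassicalGeometry.OrthSemi Cfsg.Agent.ClassicalGeometry.OrthAut1
open Cfsg.Agent.LieClassical.OrthForms
open Cfsg.Agent.H951
open Cfsg.Agent.H862.T5.OBase Cfsg.Agent.H862.T5.OFrame Cfsg.Agent.H862.T5.OPlusFour Cfsg.Agent.H862.T5.OLinFour
  Cfsg.Agent.H862.T5.OBlock Cfsg.Agent.H862.T5.OFix
open Cfsg.Agent.H957.T5V
open Cfsg.Agent.H208.Parity (ofO)
open Cfsg.Agent.H533.Wf

/-- the index type of a plane -/
abbrev K2 : Type := (Fin (1 - 1) ⊕ Fin (1 - 1)) ⊕ Fin 2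

section model

variable {F : Type*} [Field F]

/-- the six-dimensional form of minus type -/
def q6 (a b : F) : QuadraticForm F (M2 F × (K2 → F)) :=
  (detQ F).comp (LinearMap.fst F _ _) + (minusForm (1 - 1) F a b).comp (LinearMap.snd F _ _)

theorem q6_apply (a b : F) (x : M2 F × (K2 → F)) : q6 a b x = detQ F x.1 + minusForm (1 - 1) F a b x.2 := rfl

theorem polar_q6 (a b : F) (x y : M2 F × (K2 → F)) :
    polar (q6 a b) x y = polar (detQ F) x.1 y.1 + polar (minusForm (1 - 1) F a b) x.2 y.2 := by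
  simp only [polar, q6_apply, Prod.fst_add, Prod.snd_add]
  ring

theorem nondeg_q6 [Finite F] {a b : F} (hab : GenOrth.Aniso a b) : Nondeg (q6 a b) := by
  intro x hx
  apply Prod.ext
  · apply nondeg_detQ
    intro y
    have h := hx (y, 0)
    rw [polar_q6, polar_zero_right, add_zero] at h
    exact h
  · apply nondeg_minusForm _ F a b hab
    intro y
    have h := hx (0, y)
    rw [polar_q6, polar_zero_right, zero_add] at h
    exact h

theorem finrank_six : finrank F (M2 F × (K2 → F)) = 6 := by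
  rw [Module.finrank_prod, finrank_M2, Module.finrank_fintype_fun_eq_card]
  rfl

theorem good_q6 [Finite F] {a b : F} (hab : GenOrth.Aniso a b) : Good (q6 a b) :=
  Cfsg.Agent.LieClassical.OrthFinite.good_of_finite (nondeg_q6 hab) (by rw [finrank_six]; omega)

end model

section acts

variable {F U : Type*} [Field F] [AddCommGroup U] [Module F U] [FiniteDimensional F U] {q : QuadraticForm F U}

theorem quasi_E (hG : Good q) : Cfsg.IsQuasisimple ↥(E q) :=
  ⟨⟨commutator_E hG⟩, Cfsg.Agent.LieClassical.OrthSimple.good_isSimpleGroup hG⟩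

theorem acts_id (hG : Good q) {p : ℕ} (hp : Odd p) {k : U ≃ₗ[F] U} (hk : k ∈ O q) (hkp : k ^ p = 1) (hk1 : k ≠ 1) :
    Acts (MonoidHom.id ↥(E q)) (toA k) := by
  constructor
  · intro s
    exact ⟨⟨k * s.1 * k⁻¹, conj_mem_E hk s.2⟩, by
      show toA (k * s.1 * k⁻¹) = _
      rw [map_mul, map_mul, map_inv]
      rfl⟩
  · by_contra hno
    push Not at hno
    apply hk1
    refine eq_one_of_Psi hG hp hk hkp ?_
    ext x
    induction x using QuotientGroup.induction_on with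
    | H s =>
      rw [Psi_mk]
      have h1 : conjE q (ofO k hk) s = s := by
        apply Subtype.ext
        ext1 v
        rw [coe_conjE, conjLin_apply]
        exact DFunLike.congr_fun (hno s) v
      rw [h1]
      rfl

end acts

section exists6

variable {F V : Type*} [Field F] [Fintype F] [AddCommGroup V] [Module F V] [FiniteDimensional F V]
  {Q : QuadraticForm F V}

theorem exists_six (hG : Good Q) (h8 : 8 ≤ finrank F V) {g : V ≃ₗ[F] V} (hg : g ∈ O Q) {p : ℕ} [hp : Fact p.Prime]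
    (hp2 : p ≠ 2) (hpF : (p : F) ≠ 0) (hgp : g ^ p = 1) (hg1 : g ≠ 1)
    (he : orderOf (Fintype.card F : ZMod p) = 2) {a b : F} (hab : GenOrth.Aniso a b) :
    ∃ j : (M2 F × (K2 → F)) →ₗ[F] V, Emb Q (q6 a b) j ∧ Inv (en g) (LinearMap.range j) ∧
      ∃ w ∈ LinearMap.range j, g w ≠ w := by
  have hB := frm_polar Q
  obtain ⟨j₄, hj₄, hi₄, w, hw, hgw⟩ := four_lin hG hg hp2 hpF hgp hg1 (Or.inr he)
  have hn := hj₄.nd nondeg_detQ
  have hx := isom_en hg
  obtain ⟨W, hWdef⟩ : ∃ W, W = hB.perp (LinearMap.range j₄) ⊓ ⊤ := ⟨_, rfl⟩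
  have hWn : Nd (BB Q) W := by rw [hWdef]; exact hB.nd_perp_inf (nd_top hG.nondeg) hn le_top
  have hWi : Inv (en g) W := by
    rw [hWdef]
    exact (hx.inv_perp hB (en_injective g) hi₄).inf fun _ _ => trivial
  have hWd : 4 ≤ finrank F W := by
    have hf := hB.finrank_perp_inf hn (le_top (a := LinearMap.range j₄))
    rw [finrank_top, LinearMap.finrank_range_of_inj (hj₄.injective nondeg_detQ), finrank_M2, ← hWdef] at hf
    omega
  have hemb : Emb Q (qr Q W) W.subtype := ⟨fun u => rfl⟩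
  have hr : LinearMap.range W.subtype = W := Submodule.range_subtype W
  obtain ⟨g', hg', hgg'⟩ := exists_restrict hemb (nondeg_qr hWn) hg (by rw [hr]; exact hWi)
    (by rw [hr]; exact inv_of_inv hWi)
  have hpow : ∀ (n : ℕ) (u : W), (g ^ n) (u : V) = ((g' ^ n) u : V) := by
    intro n
    induction n with
    | zero => intro u; rfl
    | succ n ih =>
      intro u
      rw [pow_succ', LinearEquiv.mul_apply, ih, pow_succ', LinearEquiv.mul_apply]
      exact hgg' _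
  have hgp' : g' ^ p = 1 := by
    ext1 u
    apply Subtype.ext
    rw [← hpow, hgp]
    rfl
  obtain ⟨j', hj', hi'⟩ : ∃ j' : (K2 → F) →ₗ[F] W, Emb (qr Q W) (minusForm (1 - 1) F a b) j' ∧
      Inv (en g') (LinearMap.range j') := by
    by_cases h1 : g' = 1
    · obtain ⟨j', hj'⟩ := H193.QuadEmb.emb_plane (P := minusForm (1 - 1) F a b) (nondeg_qr hWn)
        (by rw [Module.finrank_fintype_fun_eq_card]; rfl) (by omega)
      refine ⟨j', ⟨hj'⟩, ?_⟩
      subst h1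
      exact fun w hw => hw
    · obtain ⟨j', hj', hi', -⟩ := exists_minus_block (nondeg_qr hWn) hg' hp2 hpF hgp' h1 (m := 1) he hab
      exact ⟨j', hj', hi'⟩
  have hperp : ∀ (X : M2 F) (z : K2 → F), polar Q (j₄ X) (j' z : V) = 0 := by
    intro X z
    have h1 : (j' z : V) ∈ hB.perp (LinearMap.range j₄) ⊓ ⊤ := by rw [← hWdef]; exact (j' z).2
    have h2 := h1.1 (j₄ X) ⟨X, rfl⟩
    rw [BB_apply, polar_comm] at h2
    exact h2
  let j : (M2 F × (K2 → F)) →ₗ[F] V := j₄ ∘ₗ LinearMap.fst F _ _ + W.subtype ∘ₗ j' ∘ₗ LinearMap.snd F _ _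
  have hjv : ∀ x, j x = j₄ x.1 + (j' x.2 : V) := fun x => rfl
  refine ⟨j, ⟨fun x => ?_⟩, ?_, ?_⟩
  · have h1 : Q (j' x.2 : V) = minusForm (1 - 1) F a b x.2 := hj'.form x.2
    rw [hjv, Q_add, hperp, hj₄.form, h1, add_zero, q6_apply]
  · rintro _ ⟨x, rfl⟩
    obtain ⟨X, hX⟩ := hi₄ (j₄ x.1) ⟨_, rfl⟩
    obtain ⟨z, hz⟩ := hi' (j' x.2) ⟨_, rfl⟩
    refine ⟨(X, z), ?_⟩
    rw [hjv, hjv, map_add, hX, hz]
    congr 1
    exact (hgg' (j' x.2)).symm
  · obtain ⟨X, rfl⟩ := hw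
    refine ⟨j₄ X, ⟨(X, 0), ?_⟩, hgw⟩
    rw [hjv, map_zero]
    exact add_zero _

end exists6

section kill

variable {F V : Type*} [Field F] [Fintype F] [AddCommGroup V] [Module F V] [FiniteDimensional F V]
  {Q : QuadraticForm F V} {Γ : Subgroup (MulAut (P Q))} {C D : Set (MulAut (P Q))}

theorem exists_cov {U : Type*} [AddCommGroup U] [Module F U] [FiniteDimensional F U] {q : QuadraticForm F U}
    {j : U →ₗ[F] V} (hj : Emb Q q j) (hq : Nondeg q)
    {g : V ≃ₗ[F] V} (hg : g ∈ O Q) (hji : Inv (en g) (LinearMap.range j)) (hn : ∃ w ∈ LinearMap.range j, g w ≠ w)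
    {p : ℕ} (hgp : g ^ p = 1) :
    ∃ g' ∈ O q, (∀ u, g (j u) = j (g' u)) ∧ g' ^ p = 1 ∧ g' ≠ 1 := by
  obtain ⟨g', hg', hgg'⟩ := exists_restrict hj hq hg hji (inv_of_inv hji)
  have hpow : ∀ (n : ℕ) (u : U), (g ^ n) (j u) = j ((g' ^ n) u) := by
    intro n
    induction n with
    | zero => intro u; rfl
    | succ n ih => intro u; rw [pow_succ', LinearEquiv.mul_apply, ih, hgg', pow_succ', LinearEquiv.mul_apply]
  refine ⟨g', hg', hgg', ?_, ?_⟩
  · ext1 u
    apply hj.injective hq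
    rw [← hpow, hgp]
    rfl
  · rintro rfl
    obtain ⟨_, ⟨u, rfl⟩, hu⟩ := hn
    exact hu (hgg' u)

/-- **Two isometries of order `p`, `ord_p(q) = 2`.** -/
theorem false_of_six (hG : Good Q) (h8 : 8 ≤ finrank F V) {p : ℕ} [hp : Fact p.Prime] (hp2 : p ≠ 2)
    (hpF : (p : F) ≠ 0) (he : orderOf (Fintype.card F : ZMod p) = 2) (h : ACfg p Γ C D)
    {g₁ g₂ : V ≃ₗ[F] V} (h₁ : g₁ ∈ O Q) (h₂ : g₂ ∈ O Q) (hg₁ : g₁ ^ p = 1) (hg₂ : g₂ ^ p = 1) (hn₁ : g₁ ≠ 1)
    (hn₂ : g₂ ≠ 1) (hX : Psi Q (ofO g₁ h₁) ∈ C) (hY : Psi Q (ofO g₂ h₂) ∈ D) : False := by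
  obtain ⟨a, b, hab⟩ := Cfsg.Agent.H862.T5.OMain.exists_aniso F
  have hodd := hp.out.odd_of_ne_two hp2
  have hG6 := good_q6 hab
  obtain ⟨j₁, e₁, i₁, k₁⟩ := exists_six hG h8 h₁ hp2 hpF hg₁ hn₁ he hab
  obtain ⟨j₂, e₂, i₂, k₂⟩ := exists_six hG h8 h₂ hp2 hpF hg₂ hn₂ he hab
  obtain ⟨g₁', hg₁', hj₁, hp₁, hn₁'⟩ := exists_cov e₁ hG6.nondeg h₁ i₁ k₁ hg₁
  obtain ⟨g₂', hg₂', hj₂, hp₂, hn₂'⟩ := exists_cov e₂ hG6.nondeg h₂ i₂ k₂ hg₂
  obtain ⟨T, hT, g, hg, hTj⟩ := exists_common' hG hG6.nondeg e₁ e₂ (by rw [finrank_six]; omega)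
  have hc1 : Cov j₁ (ofO g₁ h₁).1 (toA g₁') := hj₁
  have hc2 : Cov j₂ (ofO g₂ h₂).1 (toA g₂') := hj₂
  have hc3 : Cov (T.toLinearMap ∘ₗ j₂) (ofO T (E_le_O hT) * ofO g₂ h₂ * (ofO T (E_le_O hT))⁻¹).1 (toA g₂') :=
    hc2.left T
  have hc4 : Cov j₁ (ofO T (E_le_O hT) * ofO g₂ h₂ * (ofO T (E_le_O hT))⁻¹).1 (toA g * toA g₂' * (toA g)⁻¹) :=
    hc3.right hTj
  have hk : g * g₂' * g⁻¹ ∈ O (q6 a b) := (O _).mul_mem ((O _).mul_mem hg hg₂') ((O _).inv_mem hg)
  have hkp : (g * g₂' * g⁻¹) ^ p = 1 := by rw [conj_pow, hp₂, mul_one, mul_inv_cancel]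
  have hk1 : g * g₂' * g⁻¹ ≠ 1 := by
    intro h
    apply hn₂'
    have h2 : g * g₂' = g := mul_inv_eq_one.1 h
    exact mul_eq_left.1 h2
  have ha2 := acts_id hG6 hodd hk hkp hk1
  rw [map_mul, map_mul, map_inv] at ha2
  have hfin : Finite (M2 F × (K2 → F)) := Module.finite_of_finite F
  have : Finite ((M2 F × (K2 → F)) ≃ₗ[F] (M2 F × (K2 → F))) :=
    Finite.of_injective (fun f => (f : (M2 F × (K2 → F)) → (M2 F × (K2 → F)))) DFunLike.coe_injective
  exact false_of_block hG e₁ hG6.nondeg (by rw [finrank_six]; omega) (by rw [finrank_six]; omega) (quasi_E hG6)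
    (MonoidHom.id _) h hX (conj_mem h hY hT) hc1 hc4 (acts_id hG6 hodd hg₁' hp₁ hn₁') ha2

end kill

end Cfsg.Agent.H79.WO
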