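import Cfsg.Agent.H862.T5.ORow
import Cfsg.Agent.H79.WO.Six

/-!
# S3826, orthogonal groups in cross characteristic: the rows (task 4266, W3-PO)

* `false_of_gam` : the kill for two automorphisms of order 3 of `P Q` given by semisimilitudes;
* `false_of_semi` : the same for `POmega F Q`;
* `arow_pomegaOdd`, `arow_pomegaMinus`, `arow_pomegaPlus` (`m ≥ 5`), `false_pomegaPlus` (`m ≥ 4`, pairs of automorphisms
  induced by semisimilitudes).
-/

set_option autoImplicit false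
set_option linter.unusedSectionVars false

namespace Cfsg.Agent.H79.WO

open QuadraticMap Module Cfsg.Agent.LieClassical.OrthCore Cfsg.Agent.LieClassical.OrthTrans
open Cfsg.Agent.ClassicalGeometry.OrthSemi Cfsg.Agent.ClassicalGeometry.OrthAut1
open Cfsg.Agent.LieClassical.QuadForms
open Cfsg.Agent.H208.ConjSS (Psi_scal nontrivial_of_good)
open Cfsg.Agent.H862.T5.OBase Cfsg.Agent.H862.T5.OFrame Cfsg.Agent.H862.T5.OPlusFour
  Cfsg.Agent.H862.T5.OFix Cfsg.Agent.H862.T5.OMain Cfsg.Agent.H862.T5.ORow Cfsg.Agent.H862.T5.OBlock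
open Cfsg.Agent.H957.T5V
open Cfsg.Agent.H208.Parity (ofO)
open Cfsg.Agent.H533.Wf

universe u

section num

variable {F : Type*} [Field F] [Fintype F]

theorem cast3 (h3 : (3 : F) ≠ 0) : ((3 : ℕ) : F) ≠ 0 := by exact_mod_cast h3

theorem ord_two_three : orderOf (2 : ZMod 3) = 2 := by
  have : Fact (Nat.Prime 2) := ⟨Nat.prime_two⟩
  exact orderOf_eq_prime (by decide) (by decide)

theorem ord_three [Fact (Nat.Prime 3)] (h3 : (3 : F) ≠ 0) :
    orderOf (Fintype.card F : ZMod 3) = 1 ∨ orderOf (Fintype.card F : ZMod 3) = 2 := by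
  have h1 := not_dvd_card (F := F) (p := 3) (cast3 h3)
  rw [← ZMod.natCast_eq_zero_iff] at h1
  generalize (Fintype.card F : ZMod 3) = x at h1
  fin_cases x
  · exact absurd rfl h1
  · left
    exact orderOf_one
  · right
    exact ord_two_three

theorem eq_one_of_card_two (h2 : Nat.card F = 2) (σ : F ≃+* F) : σ = 1 := by
  ext a
  by_cases ha : a = 0
  · rw [ha, map_zero]; rfl
  · have h1 := FiniteField.pow_card_sub_one_eq_one a ha
    rw [← Nat.card_eq_fintype_card, h2, pow_one] at h1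
    rw [h1, map_one]
    rfl

theorem card_cases (h3 : (3 : F) ≠ 0) : 4 ≤ Nat.card F ∨ Nat.card F = 2 := by
  have h1 : 1 < Nat.card F := by
    rw [Nat.card_eq_fintype_card]
    exact Fintype.one_lt_card
  have h2 : Nat.card F ≠ 3 := by
    intro h
    apply cast3 h3
    rw [← h, Nat.card_eq_fintype_card]
    exact FiniteField.cast_card_eq_zero F
  omega

end num

section main

variable {F V : Type u} [Field F] [Fintype F] [AddCommGroup V] [Module F V] [FiniteDimensional F V]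
  {Q : QuadraticForm F V} {Γ : Subgroup (MulAut (P Q))} {C D : Set (MulAut (P Q))}

theorem psi_eq_of_scl (hG : Good Q) {X Y : Gam Q} (h : Scl F Y.1 X.1) : Psi Q Y = Psi Q X := by
  obtain ⟨s, hs, h⟩ := h
  have h1 : Y = scal Q (Units.mk0 s hs) * X := by
    apply Subtype.ext
    ext1 v
    exact h v
  rw [h1, map_mul, Psi_scal hG, one_mul]

/-- normal forms of the elements of order three -/
theorem norm_gam (hG : Good Q) {X : Gam Q} (hX : orderOf (Psi Q X) = 3) :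
    (∃ (g : V ≃ₗ[F] V) (hg : g ∈ O Q), NLin Q 3 g ∧ Psi Q (ofO g hg) = Psi Q X) ∨
      ∃ (σ : F ≃+* F) (Y : Gam Q), NNl Q 3 σ Y.1 ∧ Psi Q Y = Psi Q X := by
  have hpsi : Psi Q X ^ 3 = 1 := by rw [← hX]; exact pow_orderOf_eq_one _
  have hXp : IsScal F (X.1 ^ 3) := by
    obtain ⟨a, ha⟩ := exists_scal hG (M := X ^ 3) (by rw [map_pow, hpsi])
    refine ⟨a, fun v => ?_⟩
    have h4 : (X ^ 3).1 v = (scal Q a).1 v := by rw [ha]
    exact h4
  have hXn : ¬ IsScal F X.1 := by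
    rintro ⟨a, ha⟩
    have hne : a ≠ 0 := by
      rintro rfl
      have := nontrivial_of_good hG
      obtain ⟨v, hv⟩ := exists_ne (0 : V)
      apply hv
      apply X.1.injective
      rw [ha, ha, zero_smul, zero_smul]
    have h1 : Psi Q X = 1 := by
      have h2 : X = scal Q (Units.mk0 a hne) := by
        apply Subtype.ext
        ext1 v
        exact ha v
      rw [h2, Psi_scal hG]
    rw [h1, orderOf_one] at hX
    omega
  rcases exists_norm Nat.prime_three (by norm_num) hG X hXp hXn with ⟨g, hg, hs⟩ | ⟨σ, M, hM, hs⟩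
  · exact Or.inl ⟨g, hg.1, hg, psi_eq_of_scl hG (Y := ofO g hg.1) hs⟩
  · right
    obtain ⟨⟨c, hc⟩, -⟩ := id hM
    exact ⟨σ, ⟨M, σ, c, hc⟩, hM, psi_eq_of_scl hG (Y := ⟨M, σ, c, hc⟩) hs⟩

/-- **The kill for semisimilitudes.** -/
theorem false_of_gam (hG : Good Q) (h7 : 7 ≤ finrank F V) (h8 : 4 ≤ Nat.card F ∨ 8 ≤ finrank F V)
    (h3 : (3 : F) ≠ 0) (h : ACfg 3 Γ C D) {X Y : Gam Q} (hX : Psi Q X ∈ C) (hY : Psi Q Y ∈ D) : False := by
  have hp : Fact (Nat.Prime 3) := ⟨Nat.prime_three⟩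
  have hpF := cast3 h3
  have hord := ord_three h3
  rcases card_cases h3 with h4 | h2
  · have key : ∀ {Z : Gam Q}, orderOf (Psi Q Z) = 3 → ∃ Z' : Gam Q, Fr4 Q Z'.1 ∧ Psi Q Z' = Psi Q Z := by
      intro Z hZ
      rcases norm_gam hG hZ with ⟨g, hg, hn, he⟩ | ⟨σ, Y, hn, he⟩
      · exact ⟨ofO g hg, hn.fr4 hG (by norm_num) hpF hord, he⟩
      · exact ⟨Y, hn.fr4 hp.out hG, he⟩
    obtain ⟨X', hX', eX⟩ := key (h.ordC _ hX)
    obtain ⟨Y', hY', eY⟩ := key (h.ordD _ hY)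
    rw [← eX] at hX
    rw [← eY] at hY
    exact false_of_fr4 hG h7 h4 h hX hY hX' hY'
  · have h8' : 8 ≤ finrank F V := by omega
    have he : orderOf (Fintype.card F : ZMod 3) = 2 := by
      rw [← Nat.card_eq_fintype_card, h2]
      exact ord_two_three
    have key : ∀ {Z : Gam Q}, orderOf (Psi Q Z) = 3 → ∃ (g : V ≃ₗ[F] V) (hg : g ∈ O Q), NLin Q 3 g ∧
        Psi Q (ofO g hg) = Psi Q Z := by
      intro Z hZ
      rcases norm_gam hG hZ with hc | ⟨σ, Y, hn, he⟩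
      · exact hc
      · exact absurd (eq_one_of_card_two h2 σ) hn.2.1
    obtain ⟨g₁, h₁, n₁, e₁⟩ := key (h.ordC _ hX)
    obtain ⟨g₂, h₂, n₂, e₂⟩ := key (h.ordD _ hY)
    rw [← e₁] at hX
    rw [← e₂] at hY
    exact false_of_six hG h8' (by norm_num) hpF he h h₁ h₂ n₁.2.1 n₂.2.1 n₁.2.2 n₂.2.2 hX hY

end main

section pomega

variable {ι F : Type} [Fintype ι] [DecidableEq ι] [Field F] [Fintype F] {Q : QuadraticForm F (ι → F)}

/-- an automorphism induced by a semisimilitude -/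
def BySemi (Q : (ι → F) → F) (c : MulAut (Cfsg.POmega F Q)) : Prop :=
  ∃ y, H903.SylSemi.SemiO F Q y ∧ H903.SylSemi.Ind (H152.MeetOmega.proj Q) (H152.MeetOmega.rho Q) y c

/-- **The kill for semisimilitudes**, `POmega`. -/
theorem false_of_semi (hG : Good Q) (h7 : 7 ≤ Fintype.card ι) (h8 : 4 ≤ Nat.card F ∨ 8 ≤ Fintype.card ι)
    (h3 : (3 : F) ≠ 0) {Γ : Subgroup (MulAut (Cfsg.POmega F ⇑Q))} {C D : Set (MulAut (Cfsg.POmega F ⇑Q))}
    (h : ACfg 3 Γ C D) {c d : MulAut (Cfsg.POmega F ⇑Q)} (hc : c ∈ C) (hd : d ∈ D) (hcs : BySemi ⇑Q c)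
    (hds : BySemi ⇑Q d) : False := by
  obtain ⟨y, hy, hyc⟩ := hcs
  obtain ⟨z, hz, hzd⟩ := hds
  have h1 := (H152.MeetOmega.ind_iff hG ⟨y, H152.MeetOmega.mem_gam_iff.2 hy⟩ c).1 hyc
  have h2 := (H152.MeetOmega.ind_iff hG ⟨z, H152.MeetOmega.mem_gam_iff.2 hz⟩ d).1 hzd
  have hf : finrank F (ι → F) = Fintype.card ι := Module.finrank_fintype_fun_eq_card F
  refine false_of_gam hG (by rw [hf]; exact h7) (by rw [hf]; exact h8) h3 (mapEquiv h (AutOrth.Main.pe hG))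
    (X := ⟨y, H152.MeetOmega.mem_gam_iff.2 hy⟩) (Y := ⟨z, H152.MeetOmega.mem_gam_iff.2 hz⟩) ?_ ?_
  · rw [← h1]
    exact ⟨c, hc, rfl⟩
  · rw [← h2]
    exact ⟨d, hd, rfl⟩

theorem arow_good (hG : Good Q) (h7 : 7 ≤ Fintype.card ι) (h8 : 4 ≤ Nat.card F ∨ 8 ≤ Fintype.card ι)
    (h3 : (3 : F) ≠ 0) (hall : ∀ c : MulAut (Cfsg.POmega F ⇑Q), BySemi ⇑Q c) : ARow 3 (Cfsg.POmega F ⇑Q) := by
  intro Γ C D h
  obtain ⟨c, hc⟩ := h.neC
  obtain ⟨d, hd⟩ := h.neD
  exact false_of_semi hG h7 h8 h3 h hc hd (hall c) (hall d)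

/-- **The row for `PΩ_{2m+1}(q)`**, `m ≥ 3`, `q` odd, `3 ∤ q`. -/
theorem arow_pomegaOdd {m : ℕ} (hm : 3 ≤ m) (h2 : (2 : F) ≠ 0) (h3 : (3 : F) ≠ 0) :
    ARow 3 (Cfsg.POmega F (Cfsg.quadFormOdd m F)) := by
  have hG := AutOrth.Main.good_odd (F := F) (m := m) (by omega) h2
  have hall : ∀ c : MulAut (Cfsg.POmega F (Cfsg.quadFormOdd m F)), BySemi (Cfsg.quadFormOdd m F) c :=
    fun c => H152.MeetOmega.gamma_odd hm h2 c
  have h4 : 4 ≤ Nat.card F := by
    rcases card_cases h3 with h | h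
    · exact h
    · exfalso
      apply h2
      have h5 := FiniteField.cast_card_eq_zero F
      rw [← Nat.card_eq_fintype_card, h] at h5
      exact_mod_cast h5
  rw [← coe_oddForm] at hall ⊢
  exact arow_good hG (by simp only [Fintype.card_sum, Fintype.card_fin, Fintype.card_unit]; omega) (Or.inl h4) h3 hall

/-- **The row for `PΩ⁻_{2m}(q)`**, `m ≥ 4`, `3 ∤ q`. -/
theorem arow_pomegaMinus {m : ℕ} (hm : 4 ≤ m) {a b : F}
    (hab : ∀ z₁ z₂ : F, z₁ ^ 2 + a * z₁ * z₂ + b * z₂ ^ 2 = 0 → z₁ = 0 ∧ z₂ = 0) (h3 : (3 : F) ≠ 0) :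
    ARow 3 (Cfsg.POmega F (Cfsg.quadFormMinus (m - 1) F a b)) := by
  have hG := AutOrth.Main.good_minus (F := F) (m := m - 1) (by omega) hab
  have hall : ∀ c : MulAut (Cfsg.POmega F (Cfsg.quadFormMinus (m - 1) F a b)),
      BySemi (Cfsg.quadFormMinus (m - 1) F a b) c := fun c => H152.MeetOmega.gamma_minus (by omega) hab c
  rw [← coe_minusForm] at hall ⊢
  exact arow_good hG (by simp only [Fintype.card_sum, Fintype.card_fin]; omega)
    (Or.inr (by simp only [Fintype.card_sum, Fintype.card_fin]; omega)) h3 hall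

/-- **The row for `PΩ⁺_{2m}(q)`**, `m ≥ 5`, `3 ∤ q`. -/
theorem arow_pomegaPlus {m : ℕ} (hm : 5 ≤ m) (h3 : (3 : F) ≠ 0) :
    ARow 3 (Cfsg.POmega F (Cfsg.quadFormPlus m F)) := by
  have hG := AutOrth.Main.good_plus (F := F) (m := m) (by omega)
  have hall : ∀ c : MulAut (Cfsg.POmega F (Cfsg.quadFormPlus m F)), BySemi (Cfsg.quadFormPlus m F) c := by
    intro c
    have h1 := AutOrth.Main.all_plus hm c
    revert c
    rw [← coe_plusForm]
    intro c h1
    exact H152.MeetOmega.exists_of_ind hG h1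
  rw [← coe_plusForm] at hall ⊢
  exact arow_good hG (by simp only [Fintype.card_sum, Fintype.card_fin]; omega)
    (Or.inr (by simp only [Fintype.card_sum, Fintype.card_fin]; omega)) h3 hall

/-- **The kill for `PΩ⁺_{2m}(q)`**, `m ≥ 4`, `3 ∤ q`: pairs of automorphisms induced by semisimilitudes. -/
theorem false_pomegaPlus {m : ℕ} (hm : 4 ≤ m) (h3 : (3 : F) ≠ 0)
    {Γ : Subgroup (MulAut (Cfsg.POmega F (Cfsg.quadFormPlus m F)))}
    {C D : Set (MulAut (Cfsg.POmega F (Cfsg.quadFormPlus m F)))} (h : ACfg 3 Γ C D)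
    {c d : MulAut (Cfsg.POmega F (Cfsg.quadFormPlus m F))} (hc : c ∈ C) (hd : d ∈ D)
    (hcs : BySemi (Cfsg.quadFormPlus m F) c) (hds : BySemi (Cfsg.quadFormPlus m F) d) : False := by
  have hG := AutOrth.Main.good_plus (F := F) (m := m) (by omega)
  revert Γ C D c d
  rw [← coe_plusForm]
  intro Γ C D h c d hc hd hcs hds
  exact false_of_semi hG (by simp only [Fintype.card_sum, Fintype.card_fin]; omega)
    (Or.inr (by simp only [Fintype.card_sum, Fintype.card_fin]; omega)) h3 h hc hd hcs hds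

end pomega

/-! ### the rows for the predicates -/

section iso

variable {S : Type} [Group S]

theorem three_ne {F : Type} [Field F] (h : ¬ Nonempty (CharP F 3)) : (3 : F) ≠ 0 := by
  have := cast_ne (F := F) Nat.prime_three h
  exact_mod_cast this

/-- `PΩ_{2m+1}(q)`, cross characteristic -/
theorem pomegaOdd_arow (hS : Cfsg.IsPOmegaOdd S) (hch : ¬ Cfsg.IsPOmegaOddChar 3 S) : ARow 3 S := by
  obtain ⟨F, _, _, m, hm, hq, ⟨e⟩⟩ := hS
  have h3 : (3 : F) ≠ 0 := three_ne (by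
    rintro ⟨hF⟩
    exact hch ⟨F, _, _, hF, m, hm, hq, ⟨e⟩⟩)
  have h2 : (2 : F) ≠ 0 := by
    intro h
    have h3 : CharP F 2 := CharTwo.of_one_ne_zero_of_two_eq_zero one_ne_zero h
    have h4 := FiniteField.even_card_iff_char_two.1 (ringChar.eq F 2 ▸ rfl : ringChar F = 2)
    rw [Nat.odd_iff] at hq
    omega
  exact ARow.congr e.symm (arow_pomegaOdd hm h2 h3)

/-- `PΩ⁻_{2m}(q)`, cross characteristic -/
theorem pomegaMinus_arow (hS : Cfsg.IsPOmegaMinus S) (hch : ¬ Cfsg.IsPOmegaMinusChar 3 S) : ARow 3 S := by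
  obtain ⟨F, _, _, m, a, b, hm, hab, ⟨e⟩⟩ := hS
  have h3 : (3 : F) ≠ 0 := three_ne (by
    rintro ⟨hF⟩
    exact hch ⟨F, inferInstance, inferInstance, hF, m, a, b, hm, hab, ⟨e⟩⟩)
  exact ARow.congr e.symm (arow_pomegaMinus hm hab h3)

end iso

end Cfsg.Agent.H79.WO
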